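import Cfsg.Agent.H297.QF.Tr
import Cfsg.Agent.H486.F4.KSeven
import Cfsg.Agent.H240.F4.Card
import Cfsg.Agent.H594.QF.VOne

/-!
# S2491, row F4: K1 (helper297)

* `re_iff` : the root elements are the conjugates of the nontrivial elements of `X_θ`.
-/

set_option autoImplicit false
set_option linter.unusedSectionVars false

namespace Cfsg.Agent.H297.QF.Re

open CoxeterSystem Cfsg.Agent.ChevalleyStructure.CoxeterGeom Cfsg.Agent.Tits.Roots Cfsg.Agent.Tits.Core
  Cfsg.Agent.Nodes Cfsg.Agent.Nodes.Reps Cfsg.Agent.Nodes.BNOf Cfsg.Agent.Nodes.RGDLib Cfsg.Agent.Nodes.Bruhat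
  Cfsg.Agent.Nodes.OppDec Cfsg.Agent.Nodes.LeviDec Cfsg.Agent.Nodes.StabComb
open Cfsg.Lie Subgroup
open Cfsg.Agent.H231.QF Cfsg.Agent.H297.QF.Su Cfsg.Agent.H297.QF.Tr

universe u

variable {F : Type u} [Field F] [Fintype F] (hF : Fintype.card F = 4) {φ : F →+* F} (hφ : ∀ t, φ t = t ^ 2)

theorem card_cent {G : Type*} [Group G] (x t : G) :
    Nat.card (centralizer ({x * t * x⁻¹} : Set G)) = Nat.card (centralizer ({t} : Set G)) := by
  refine Nat.card_congr ⟨fun g => ⟨x⁻¹ * g * x, ?_⟩, fun g => ⟨x * g * x⁻¹, ?_⟩, fun g => ?_, fun g => ?_⟩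
  · have h := mem_centralizer_singleton_iff.1 g.2
    rw [mem_centralizer_singleton_iff]
    calc x⁻¹ * (g : G) * x * t = x⁻¹ * ((g : G) * (x * t * x⁻¹)) * x := by group
      _ = x⁻¹ * ((x * t * x⁻¹) * (g : G)) * x := by rw [h]
      _ = _ := by group
  · have h := mem_centralizer_singleton_iff.1 g.2
    rw [mem_centralizer_singleton_iff]
    calc x * (g : G) * x⁻¹ * (x * t * x⁻¹) = x * ((g : G) * t) * x⁻¹ := by group
      _ = x * (t * (g : G)) * x⁻¹ := by rw [h]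
      _ = _ := by group
  · apply Subtype.ext
    show x * (x⁻¹ * (g : G) * x) * x⁻¹ = g
    group
  · apply Subtype.ext
    show x⁻¹ * (x * (g : G) * x⁻¹) * x = g
    group

include hF hφ

theorem sq_of_mem {t : KK F} (ht : t ∈ X φ th) : t * t = 1 := by
  by_cases h1 : t = 1
  · rw [h1, mul_one]
  by_contra h2
  have h3 := eq_of_long hF hφ th_root th_long (mul_mem ht ht) ht h2 h1
  exact h1 (mul_eq_left.1 h3)

/-- elements of `P_1` centralizing `V_1` lie in `X_θ` -/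
theorem mem_X_of_cent {t : KK F} (ht : t ∈ P φ j1) (hc : ∀ y ∈ V φ j1, t * y = y * t) : t ∈ X φ th := by
  have : Finite (KK F) := inferInstance
  obtain ⟨-, -, h3, h4⟩ := Cfsg.Agent.H594.QF.V1_struct hF hφ
  have hV : t ∈ V φ j1 := by
    by_contra hn
    have h5 := Cfsg.Agent.H486.F4.rank_P hF hφ ht hn
    have h6 : Nat.card {x : KK F // x ∈ V φ j1 ∧ t * x * t⁻¹ * x⁻¹ ∈ X φ th} = Nat.card (V φ j1) := by
      refine Nat.card_congr (Equiv.subtypeEquivRight fun x => ⟨fun h => h.1, fun h => ⟨h, ?_⟩⟩)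
      have h7 : t * x * t⁻¹ * x⁻¹ = 1 := by rw [hc x h]; group
      rw [h7]
      exact one_mem _
    rw [h6, h4] at h5
    norm_num at h5
  exact h3 t hV hc

/-- **K1** -/
theorem re_iff (t : KK F) : RE t ↔ t ≠ 1 ∧ ∃ x : KK F, x * t * x⁻¹ ∈ X φ th := by
  have := finite_W
  have : Fact (Nat.Prime 2) := ⟨Nat.prime_two⟩
  have : Finite (KK F) := inferInstance
  constructor
  · rintro ⟨h1, h2, h3⟩
    refine ⟨h1, ?_⟩
    -- a subgroup of order `2 ^ 36` of the centralizer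
    obtain ⟨S, hS⟩ := Sylow.exists_subgroup_card_pow_prime 2 h3
    have hS2 : Nat.card ↥(S.map (centralizer ({t} : Set (KK F))).subtype) = 2 ^ 36 := by
      rw [Nat.card_congr (S.equivMapOfInjective _ (Subgroup.subtype_injective _)).toEquiv.symm, hS]
    set S' := S.map (centralizer ({t} : Set (KK F))).subtype with hS'
    have hSp : IsPGroup 2 ↥S' := IsPGroup.of_card hS2
    have hU : IsPGroup 2 ↥(UU φ) := (exists_R hF hφ).isPGroup_Upos
    let Q : Sylow 2 (KK F) := hU.toSylow (not_dvd_index hF hφ)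
    have hQ : Nat.card ↥(Q : Subgroup (KK F)) = 2 ^ 36 := Cfsg.Agent.H240.F4.card_U hF hφ
    obtain ⟨R, hR⟩ := hSp.exists_le_sylow
    have hRc : Nat.card ↥(R : Subgroup (KK F)) = 2 ^ 36 := by
      rw [← hQ]
      exact Nat.card_congr (Sylow.equiv R Q).toEquiv
    have hSR : S' = (R : Subgroup (KK F)) := Subgroup.eq_of_le_of_card_ge hR (by rw [hRc, hS2])
    obtain ⟨x, hx⟩ := MulAction.exists_smul_eq (KK F) R Q
    refine ⟨x, ?_⟩
    have hc : ∀ u ∈ UU φ, (x * t * x⁻¹) * u = u * (x * t * x⁻¹) := by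
      intro u hu
      have h5 : u ∈ (x • R : Sylow 2 (KK F)) := by rw [hx]; exact hu
      rw [Sylow.smul_def] at h5
      obtain ⟨s, hs, rfl⟩ := h5
      have h6 : s ∈ S' := by rw [hSR]; exact hs
      obtain ⟨s', -, rfl⟩ := h6
      have h7 := mem_centralizer_singleton_iff.1 s'.2
      show x * t * x⁻¹ * (x * (s' : KK F) * x⁻¹) = x * (s' : KK F) * x⁻¹ * (x * t * x⁻¹)
      calc x * t * x⁻¹ * (x * (s' : KK F) * x⁻¹) = x * (t * (s' : KK F)) * x⁻¹ := by group
        _ = x * ((s' : KK F) * t) * x⁻¹ := by rw [h7]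
        _ = _ := by group
    have hVU : V φ j1 ≤ UU φ := VJ_le_U j1
    refine mem_X_of_cent hF hφ ?_ fun y hy => hc y (hVU hy)
    have hr := r0_mem hF hφ
    have hr1 := Cfsg.Agent.TwoESix.LeviF.r0_ne (four hF hφ)
    refine (mem_P1_iff hF hφ hr hr1 _).2 (hc _ ?_)
    exact RGD.le_Sup (S := RGD.Pos cs RGDTwE6.isCartan) ⟨th_root, by
      intro k; fin_cases k <;> decide⟩ hr
  · rintro ⟨h1, x, hx⟩
    have h2 : x * t * x⁻¹ ≠ 1 := by
      intro h
      apply h1
      calc t = x⁻¹ * (x * t * x⁻¹) * x := by group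
        _ = 1 := by rw [h]; group
    refine ⟨h1, ?_, ?_⟩
    · have h3 := sq_of_mem hF hφ hx
      calc t * t = x⁻¹ * ((x * t * x⁻¹) * (x * t * x⁻¹)) * x := by group
        _ = 1 := by rw [h3]; group
    · rw [← card_cent x t, centralizer_eq hF hφ hx h2, ← Cfsg.Agent.H240.F4.card_U hF hφ]
      exact Subgroup.card_dvd_of_le (UU_le_P φ j1)

end Cfsg.Agent.H297.QF.Re
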