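import Cfsg.Agent.H297.QF.Su
import Cfsg.Agent.H164.F4.Out
import Cfsg.Agent.KFacts.RgdSyl

/-!
# S2491, row F4: transvections (helper297)

* `exists_conj_mem_U` : every 2-element of `²E₆(2)` is conjugate into `U`, hence into `P_J` (`in_of_pow`);
* `transvection_out` : elements of `P_1` over a transvection can be moved into `P_4 ∖ V_4`.
-/

set_option autoImplicit false
set_option linter.unusedSectionVars false

namespace Cfsg.Agent.H297.QF.Tr

open CoxeterSystem Cfsg.Agent.ChevalleyStructure.CoxeterGeom Cfsg.Agent.Tits.Roots Cfsg.Agent.Tits.Core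
  Cfsg.Agent.Nodes Cfsg.Agent.Nodes.Reps Cfsg.Agent.Nodes.BNOf Cfsg.Agent.Nodes.RGDLib Cfsg.Agent.Nodes.Bruhat
  Cfsg.Agent.Nodes.OppDec Cfsg.Agent.Nodes.LeviDec Cfsg.Agent.Nodes.StabComb
open Cfsg.Lie Subgroup
open Cfsg.Agent.H231.QF Cfsg.Agent.H297.QF.Su

universe u v

variable {F : Type u} [Field F] [Fintype F]

/-- `U` -/
noncomputable abbrev UU (φ : F →+* F) : Subgroup (KK F) := RGD.Sup (X φ) (RGD.Pos cs RGDTwE6.isCartan)

theorem UU_le_P (φ : F →+* F) (J : Set (Fin 4)) : UU φ ≤ P φ J := le_trans RGD.U_le_B B_le_PJ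

theorem not_dvd_index (hF : Fintype.card F = 4) {φ : F →+* F} (hφ : ∀ t, φ t = t ^ 2) : ¬ 2 ∣ (UU φ).index := by
  have := finite_W
  have : Fact (Nat.Prime 2) := ⟨Nat.prime_two⟩
  have : Finite (KK F) := inferInstance
  have h := Cfsg.Agent.KFacts.RgdSyl.not_dvd_relIndex (exists_R hF hφ)
  rwa [Cfsg.Agent.KFacts.RgdRigid.GG_eq_top (T := RGDTwE6.T F 2) (G1_top hF hφ), relIndex_top_right] at h

/-- **Every 2-element is conjugate into `U`.** -/
theorem exists_conj_mem_U (hF : Fintype.card F = 4) {φ : F →+* F} (hφ : ∀ t, φ t = t ^ 2) (g : KK F)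
    (hg : ∃ k : ℕ, g ^ 2 ^ k = 1) : ∃ x : KK F, x * g * x⁻¹ ∈ UU φ := by
  have := finite_W
  have : Fact (Nat.Prime 2) := ⟨Nat.prime_two⟩
  have : Finite (KK F) := inferInstance
  have hU : IsPGroup 2 ↥(UU φ) := (exists_R hF hφ).isPGroup_Upos
  let S : Sylow 2 (KK F) := hU.toSylow (not_dvd_index hF hφ)
  have hz : IsPGroup 2 ↥(zpowers g) := by
    obtain ⟨k, hk⟩ := hg
    have h1 : orderOf g ∣ 2 ^ k := orderOf_dvd_of_pow_eq_one hk
    obtain ⟨m, -, hm⟩ := (Nat.dvd_prime_pow Nat.prime_two).1 h1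
    exact IsPGroup.of_card (n := m) (by rw [Nat.card_zpowers, hm])
  obtain ⟨Q, hQ⟩ := hz.exists_le_sylow
  obtain ⟨x, hx⟩ := MulAction.exists_smul_eq (KK F) Q S
  refine ⟨x, ?_⟩
  have h1 : x * g * x⁻¹ ∈ x • Q := by
    have h2 : (x • Q : Sylow 2 (KK F)) = x • Q := rfl
    rw [Sylow.smul_def]
    exact ⟨g, hQ (mem_zpowers g), rfl⟩
  rw [hx] at h1
  exact h1

/-- every 2-element is conjugate into `P_J` -/
theorem in_of_pow (hF : Fintype.card F = 4) {φ : F →+* F} (hφ : ∀ t, φ t = t ^ 2) (J : Set (Fin 4)) (g : KK F)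
    (hg : ∃ k : ℕ, g ^ 2 ^ k = 1) : Cfsg.Agent.H231.QF.In φ J g := by
  obtain ⟨x, hx⟩ := exists_conj_mem_U hF hφ g hg
  exact ⟨x, UU_le_P φ J hx⟩

/-- elements of `V_J t`, `t ∈ L_J` an involution, are 2-elements -/
theorem pow_of_mul (hF : Fintype.card F = 4) {φ : F →+* F} (hφ : ∀ t, φ t = t ^ 2) {J : Set (Fin 4)} {v t : KK F}
    (hv : v ∈ V φ J) (ht : t ∈ P φ J) (htt : t * t = 1) : ∃ k : ℕ, (v * t) ^ 2 ^ k = 1 := by
  have := finite_W
  have hP : IsPGroup 2 ↥(V φ J) := (exists_R hF hφ).isPGroup_Upos.to_le (VJ_le_U J)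
  have h1 : t * v * t⁻¹ ∈ V φ J := (mem_normalizer_iff.1 (PJ_le_normalizer_VJ (exists_R hF hφ) J ht) v).1 hv
  have h2 : v * t * (v * t) ∈ V φ J := by
    have e : v * t * (v * t) = v * (t * v * t⁻¹) * (t * t) := by group
    rw [e, htt, mul_one]
    exact mul_mem hv h1
  obtain ⟨k, hk⟩ := hP ⟨_, h2⟩
  refine ⟨k + 1, ?_⟩
  rw [pow_succ', pow_mul, pow_two]
  exact congrArg Subtype.val hk

/-- **K5** -/
theorem transvection_out (hF : Fintype.card F = 4) {φ : F →+* F} (hφ : ∀ t, φ t = t ^ 2) {f : SU 6 F 2 →* KK F}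
    (hf : f.range = Lv φ j1) (hk : f.ker = center (SU 6 F 2))
    {hF2 : Fintype.card F = 2 ^ 2} (w : Fin 6 → F) (hw : hermForm 6 F 2 w w = 0) (h0 : w ≠ 0) (v : KK F) (hv : v ∈ V φ j1) :
    Cfsg.Agent.H231.QF.Out φ j4 (v * f (Cfsg.Agent.SporadicStructure.UnitTwo.T hF2 w hw)) := by
  have := finite_W
  have htL : f (Cfsg.Agent.SporadicStructure.UnitTwo.T hF2 w hw) ∈ Lv φ j1 := by rw [← hf]; exact ⟨_, rfl⟩
  have htt : f (Cfsg.Agent.SporadicStructure.UnitTwo.T hF2 w hw) * f (Cfsg.Agent.SporadicStructure.UnitTwo.T hF2 w hw) = 1 := by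
    rw [← map_mul, Cfsg.Agent.SporadicStructure.UnitTwo.T_mul_self, map_one]
  have ht1 : f (Cfsg.Agent.SporadicStructure.UnitTwo.T hF2 w hw) ≠ 1 := by
    intro h
    rw [← MonoidHom.mem_ker, hk] at h
    have h1 := Cfsg.Agent.R01.PSUSix.tau_ne_one hF2 (n := 6) (by norm_num) hw h0
    apply h1
    rw [Cfsg.Agent.R01.PSUSix.tau_eq_pr hF2 hw]
    exact (QuotientGroup.eq_one_iff _).2 h
  refine Cfsg.Agent.H164.F4.OutV.out_four hF hφ _ ?_ (in_of_pow hF hφ j4 _ (pow_of_mul hF hφ hv (LJ_le_PJ htL) htt))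
  intro h
  apply ht1
  have h1 : f (Cfsg.Agent.SporadicStructure.UnitTwo.T hF2 w hw) ∈ V φ j1 := by
    rw [← inv_eq_of_mul_eq_one_right h]
    exact inv_mem hv
  exact eq_one_of_mem_LJ_of_mem_VJ (exists_R hF hφ) htL h1

end Cfsg.Agent.H297.QF.Tr
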